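import Cfsg.Agent.H572.FR.All
import Cfsg.Agent.H395.FR.Dich
import Cfsg.Agent.H374.FR.POne
import Cfsg.Agent.H351.FR.XBox

/-!
# `F₄(q)`, `q` odd, `q ≥ 9`: `10 |χ(g)| < χ(1)` for all `p`-singular `g`, no hypotheses (S2452; helper50)
-/

set_option autoImplicit false
set_option linter.unusedSectionVars false

namespace Cfsg.Agent.H50.FR

open Module Cfsg.Lie Cfsg.Agent.Nodes.RGDChev Cfsg.Agent.KFacts.RgdChevCoord Cfsg.Agent.Nodes.BNOf
open Cfsg.Agent.H701.F43.Cent (hF cF VV MM J3 comm_theta)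
open Cfsg.Agent.H520.FC (PK VK XT)
open Cfsg.Agent.H572.FR

universe u

variable {K : Type u} [Field K] [Finite K] {d : ℕ}

/-- **The ratio bound for all `p`-singular elements.** -/
theorem ten {p : ℕ} [Fact p.Prime] [CharP K p] (h2 : (2 : K) ≠ 0) (h9 : 9 ≤ Nat.card K)
    (σ : Representation ℂ ↥(chevF4.group K) (Fin d → ℂ)) (hirr : σ.IsIrreducible) (hσ : σ.character ≠ fun _ => 1)
    {g : ↥(chevF4.group K)} (hg : p ∣ orderOf g) : 10 * ‖σ.character g‖ < d := by
  have hX : XB K := fun g hg hgV => Cfsg.Agent.H351.FR.X.x_box_sup h2 hg hgV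
  have hfr : (finrank ℂ (Fin d → ℂ) : ℝ) = d := by rw [Module.finrank_fintype_fun_eq_card, Fintype.card_fin]
  have hr0 : 0 ≤ rq K := by
    unfold rq
    positivity
  have hq : (9 : ℝ) ≤ (Nat.card K : ℝ) := by exact_mod_cast h9
  have hinv := num_inv hq
  have hrq : rq K = 1 / 50 + ((Nat.card K : ℝ) ^ 2)⁻¹ := rfl
  have hd : 0 < d := by
    rcases Nat.eq_zero_or_pos d with rfl | h
    · exfalso
      have h1 : Subsingleton (Subrepresentation σ) := by
        refine ⟨fun A B => ?_⟩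
        apply Subrepresentation.toSubmodule_injective
        exact Subsingleton.elim _ _
      exact not_subsingleton_iff_nontrivial.2 hirr.toNontrivial h1
    · exact h
  have hg1 : g ≠ 1 := by
    rintro rfl
    rw [orderOf_one] at hg
    exact (Fact.out : p.Prime).one_lt.ne' (Nat.dvd_one.1 hg)
  -- the elements of the parabolic `i = 3`
  have hP1 : ∀ y ∈ PK K {k | k ≠ 3}, y ≠ 1 → 10 * ‖σ.character y‖ < d := by
    intro y hy hy1
    have h := Cfsg.Agent.H374.FR.Comm.p1 h2 h9 σ hr0 (fun x hx hx1 => by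
      rw [hfr]
      exact ratio_rad σ h2 h9 hirr hσ hx hx1) hy1 hy (fun h3 h4 => by
        have h5 := Cfsg.Agent.H980.RB.mem_sup (g := y) (Cfsg.Agent.H980.RB.mem_XT.2 ⟨1, rfl⟩) xt_ne_one (h3 _ (Cfsg.Agent.H980.RB.mem_XT.2 ⟨1, rfl⟩))
        exact hX y h5 h4)
    rw [hfr] at h
    exact ten_of_le hd (by linarith) h
  have hconj : ∀ x y : ↥(chevF4.group K), y ≠ 1 → x * y * x⁻¹ ≠ 1 := by
    intro x y hy h
    apply hy
    have h1 : y = x⁻¹ * (x * y * x⁻¹) * x := by group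
    rw [h1, h]
    group
  have key : ∀ y ∈ VV K ⊔ MM K, y ≠ 1 → 10 * ‖σ.character y‖ < d := fun y hy hy1 =>
    ten_of_le hd (by linarith) (ratio_cen σ h2 h9 hX hirr hσ hy hy1)
  obtain ⟨x, i, hx⟩ := Cfsg.Agent.H744.FR.exists_par (K := K) (p := p) hg
  have hx1 := hconj x g hg1
  rw [← σ.char_conj g x]
  by_cases hi : i = 3
  · subst hi
    exact hP1 _ hx hx1
  · rcases Cfsg.Agent.H395.FR.dich h2 h9 σ hirr hσ hi hx with h1 | ⟨y, h1, -⟩
    · exact ten_of_le hd (by linarith) h1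
    · rw [← σ.char_conj _ y]
      exact key _ h1 (hconj y _ hx1)

end Cfsg.Agent.H50.FR
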